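import Cfsg.Agent.EvenLocal.RankOnePSL

/-!
If `J(S) ≰ O_p(G)` in the rank one situation then `Z(J(S)) = U₀ Z(S)` with `U₀` normal.
-/

set_option autoImplicit false
set_option linter.style.haveILetI false

namespace Cfsg.Agent.EvenLocal

open Subgroup
open scoped commutatorElement

variable {G : Type*} [Group G] [Finite G] {p : ℕ} [Fact p.Prime]

omit [Finite G] in
theorem map_conj_centralizer (g : G) (A : Subgroup G) :
    (centralizer (A : Set G)).map (MulAut.conj g).toMonoidHom =
      centralizer ((A.map (MulAut.conj g).toMonoidHom : Subgroup G) : Set G) := by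
  ext x
  constructor
  · rintro ⟨c, hc, rfl⟩
    refine mem_centralizer_iff.2 ?_
    rintro - ⟨a, ha, rfl⟩
    rw [← map_mul, mem_centralizer_iff.1 hc a ha, map_mul]
  · intro hx
    refine ⟨(MulAut.conj g).symm x, mem_centralizer_iff.2 fun a ha => ?_,
      (MulAut.conj g).apply_symm_apply x⟩
    apply (MulAut.conj g).injective
    rw [map_mul, map_mul, MulEquiv.apply_symm_apply]
    exact mem_centralizer_iff.1 hx _ ⟨a, ha, rfl⟩

omit [Fact p.Prime] in
/-- The fixed points of a `p`-group `W` under a conjugation: orbits force a congruence on `|T|`. -/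
theorem dvd_card_sub_one_of_orbits {T : Subgroup G} {x : G} (hxT : x ∈ normalizer (T : Set G))
    {l e j : ℕ} (hl : l.Prime) (hxo : orderOf x = l ^ j)
    (hfix : T ⊓ centralizer ({x ^ l ^ e} : Set G) = ⊥) : l ^ (e + 1) ∣ Nat.card T - 1 := by
  classical
  let X := zpowers x
  have hXT : X ≤ normalizer (T : Set G) := zpowers_le.2 hxT
  let φ : X →* MulAut T := T.normalizerMonoidHom.comp (inclusion hXT)
  letI : MulAction X T := MulAction.compHom T φ
  have hsmul : ∀ (g : X) (t : T), ((g • t : T) : G) = (g : G) * t * (g : G)⁻¹ := fun g t => rfl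
  letI : Fintype T := Fintype.ofFinite T
  letI : ∀ t : T, Fintype (MulAction.orbit X t) := fun t => Fintype.ofFinite _
  letI : Fintype (Quotient (MulAction.orbitRel X T)) := Fintype.ofFinite _
  have hsum := Nat.card_congr (MulAction.selfEquivSigmaOrbits X T)
  rw [Nat.card_sigma] at hsum
  rw [hsum]
  set one : Quotient (MulAction.orbitRel X T) := Quotient.mk'' (1 : T) with hone
  rw [← Finset.add_sum_erase _ _ (Finset.mem_univ one)]
  have h1 : Nat.card (MulAction.orbit X (Quotient.out one)) = 1 := by
    have hout : Quotient.out one = 1 := by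
      have h := Quotient.exact' (Quotient.out_eq one)
      obtain ⟨g, hg⟩ := h
      rw [← hg]
      exact Subtype.ext (by rw [hsmul]; simp)
    rw [Nat.card_eq_one_iff_exists]
    refine ⟨⟨_, MulAction.mem_orbit_self _⟩, fun ⟨t, g, hg⟩ => Subtype.ext ?_⟩
    show t = Quotient.out one
    rw [← hg, hout]
    exact Subtype.ext (by show ((g • (1 : T) : T) : G) = _; rw [hsmul]; simp)
  rw [h1, Nat.add_sub_cancel_left]
  refine Finset.dvd_sum fun ω hω => ?_
  set t := Quotient.out ω with ht
  have ht1 : t ≠ 1 := fun h => (Finset.mem_erase.1 hω).1 (by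
    rw [hone, ← h, ht, Quotient.out_eq'])
  rw [Nat.card_congr (MulAction.orbitEquivQuotientStabilizer X t)]
  show l ^ (e + 1) ∣ (MulAction.stabilizer X t).index
  have hXc : Nat.card X = l ^ j := by rw [Nat.card_zpowers, hxo]
  obtain ⟨i, -, hi⟩ := (Nat.dvd_prime_pow hl).1 (hXc ▸ (MulAction.stabilizer X t).index_dvd_card)
  rw [hi]
  refine Nat.pow_dvd_pow l ?_
  by_contra hlt
  have hie : i ≤ e := by omega
  haveI : (MulAction.stabilizer X t).Normal := Subgroup.normal_of_isMulCommutative _
  have hmem : (⟨x, mem_zpowers x⟩ : X) ^ l ^ e ∈ MulAction.stabilizer X t := by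
    rw [show l ^ e = l ^ i * l ^ (e - i) by rw [← pow_add]; congr 1; omega, pow_mul]
    exact pow_mem (hi ▸ pow_index_mem (MulAction.stabilizer X t) _) _
  rw [MulAction.mem_stabilizer_iff, Subtype.ext_iff, hsmul, SubgroupClass.coe_pow] at hmem
  have htc : (t : G) ∈ T ⊓ centralizer ({x ^ l ^ e} : Set G) :=
    ⟨t.2, mem_centralizer_singleton_iff.2 (mul_inv_eq_iff_eq_mul.1 hmem).symm⟩
  rw [hfix, mem_bot] at htc
  exact ht1 (Subtype.ext htc)

variable {F : Type*} [Field F] [Fintype F]

/-- The structure of `Z(J(S))` when `J(S) ≰ O_p(G)`. -/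
theorem centerThompson_factor (S : Sylow p G)
    (hE₁ : centralizer (Cfsg.pCore p G : Set G) ≤ Cfsg.pCore p G)
    (hE₂ : ∃! M : Subgroup G, IsCoatom M ∧ (S : Subgroup G) ≤ M) (K : Subgroup G) [K.Normal]
    {n : ℕ} (hn : 1 ≤ n) (hF : Fintype.card F = p ^ n)
    (hE₃ : Nonempty (G ⧸ K ≃* Matrix.ProjectiveSpecialLinearGroup (Fin 2) F))
    (hJ : ¬ Cfsg.thompsonSubgroupAOf (S : Subgroup G) ≤ Cfsg.pCore p G)
    (hZ : ¬ (S : Subgroup G) ⊓ centralizer ((S : Subgroup G) : Set G) ≤ center G) :
    ∃ U₀ : Subgroup G, U₀.Normal ∧ U₀ ≤ Cfsg.centerThompsonAOf (S : Subgroup G) ∧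
      (S : Subgroup G) ⊔ centralizer (U₀ : Set G) = ⊤ ∧
      Cfsg.centerThompsonAOf (S : Subgroup G) ≤
        U₀ ⊔ ((S : Subgroup G) ⊓ centralizer ((S : Subgroup G) : Set G)) := by
  classical
  have hp : p.Prime := Fact.out
  set Q := Cfsg.pCore p G with hQdef
  set W := Q ⊓ centralizer (Q : Set G) with hW
  set Z := (S : Subgroup G) ⊓ centralizer ((S : Subgroup G) : Set G) with hZdef
  set ZJ := Cfsg.centerThompsonAOf (S : Subgroup G) with hZJ
  have hQS : Q ≤ S := Cores.pCore_le_sylow S
  have hWS : W ≤ S := inf_le_left.trans hQS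
  have hWn : ∀ g : G, W.map (MulAut.conj g).toMonoidHom = W := fun g =>
    mem_normalizer_iff_map_conj_eq.1 (by rw [normalizer_eq_top (H := W)]; trivial)
  have hQn : ∀ g : G, Q.map (MulAut.conj g).toMonoidHom = Q := fun g =>
    mem_normalizer_iff_map_conj_eq.1 (by rw [normalizer_eq_top (H := Q)]; trivial)
  have hWtop : ∀ X : Subgroup G, X ≤ normalizer (W : Set G) := fun X => by
    rw [normalizer_eq_top (H := W)]; exact le_top
  have hWc : IsMulCommutative W := Modules.comm_iff.2 fun a ha b hb =>
    mem_centralizer_iff.1 hb.2 a ha.1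
  have hWp : IsPGroup p W := S.2.to_le hWS
  have hQW : Q ≤ centralizer (W : Set G) := le_centralizer_iff.1 inf_le_right
  haveI : (centralizer (W : Set G)).Normal := normalizer_eq_top_iff.1 (top_le_iff.1
    (Modules.normalizes_centralizer (normalizer_eq_top (H := W)).ge))
  have hZW : Z ≤ W := center_sylow_le S hE₁
  have hCne : (S : Subgroup G) ⊔ centralizer (W : Set G) ≠ ⊤ := fun h =>
    hZ (le_center_of_centralized S h (centralizer_le hZW) inf_le_right)
  have hC := (inf_le_pCore_or_sup_eq_top S hE₂ (centralizer (W : Set G))).resolve_right hCne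
  -- the quotient
  obtain ⟨e⟩ := hE₃
  obtain ⟨φ, hs, hker, hSφ⟩ := exists_normalized S K hn hF e
  have hq1 : 1 < Nat.card F := Finite.one_lt_card
  have hSK := inf_ker_eq_pCore S hs hker hSφ hE₂ hq1
  have hcS := card_sylow_eq S hker hSφ hSK
  have hqF : Nat.card F = p ^ n := by rw [Nat.card_eq_fintype_card, hF]
  -- the offender
  obtain ⟨A, hA, hAQ, hquad⟩ := exists_quadratic_element S hE₂ hJ hC
  set B := A ⊓ Q with hB
  set D := W ⊓ centralizer (A : Set G) with hD
  have hBC : B ≤ centralizer (W : Set G) := inf_le_right.trans hQW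
  have hweight : Nat.card B * Nat.card W ≤ Nat.card A * Nat.card D := by
    have h := Modules.maxAbIn_weight_max hA hWc hWS B inf_le_left
    rwa [Modules.offenderWeight, inf_eq_left.2 (le_centralizer_iff.1 hBC)] at h
  have hAQcard := Modules.card_sup_mul_card_inf (B := A) (V := Q)
    (by rw [normalizer_eq_top (H := Q)]; exact le_top)
  rw [← hB] at hAQcard
  have hAQle : Nat.card ↥(A ⊔ Q) ≤ Nat.card F * Nat.card Q :=
    hcS ▸ card_le_of_le (sup_le hA.1 hQS)
  have hBq : Nat.card A ≤ Nat.card F * Nat.card B := by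
    refine Nat.le_of_mul_le_mul_right ?_ (Nat.card_pos (α := Q))
    rw [← hAQcard, mul_right_comm]
    exact Nat.mul_le_mul_right _ hAQle
  have hWD : Nat.card W ≤ Nat.card F * Nat.card D := by
    refine Nat.le_of_mul_le_mul_left ?_ (Nat.card_pos (α := B))
    calc Nat.card B * Nat.card W ≤ Nat.card A * Nat.card D := hweight
      _ ≤ Nat.card F * Nat.card B * Nat.card D := Nat.mul_le_mul_right _ hBq
      _ = _ := by ring
  obtain ⟨a, haA, haQ⟩ := SetLike.not_le_iff_exists.1 hAQ
  have haK : a ∉ K := fun h => haQ (hSK.le ⟨hA.1 haA, h⟩)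
  -- the odd prime power
  obtain ⟨l, e', hl, hl2, hlp, hlq, hlm⟩ : ∃ l e' : ℕ, l.Prime ∧ l ≠ 2 ∧ l ≠ p ∧
      (2 ≤ n → l ^ (e' + 1) ∣ p ^ n + 1) ∧
      ∀ m, 2 ≤ n → l ^ (e' + 1) ∣ p ^ m - 1 → 2 * n ∣ m := by
    by_cases h : 2 ≤ n
    · obtain ⟨l, e', h1, h2, h3, h4, h5⟩ := exists_prime_power_order hp h
      exact ⟨l, e', h1, h2, h3, fun _ => h4, fun m _ => h5 m⟩
    · obtain ⟨l, hlb, hl⟩ := Nat.exists_infinite_primes (p + 3)
      exact ⟨l, 0, hl, by omega, by omega, fun h' => absurd h' h, fun m h' => absurd h' h⟩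
  have hodd : Odd (l ^ (e' + 1)) := (hl.odd_of_ne_two hl2).pow
  have hr1 : 1 < l ^ (e' + 1) := Nat.one_lt_pow (by omega) hl.one_lt
  obtain ⟨g, hgen, hord⟩ : ∃ g : G,
      (S : Subgroup G) ⊔ (S : Subgroup G).map (MulAut.conj g).toMonoidHom ⊔ K = ⊤ ∧
      (2 ≤ n → ∀ k : ℕ, (a * (g * a * g⁻¹)) ^ k ∈ K → l ^ (e' + 1) ∣ k) := by
    by_cases h : 2 ≤ n
    · obtain ⟨g, h1, h2⟩ := exists_generating_conj S hs hker hSφ hq1 (hA.1 haA) haK hodd hr1
        (hqF ▸ hlq h)
      exact ⟨g, h1, fun _ => h2⟩
    · obtain ⟨gw, hgw⟩ := hs (QuotientGroup.mk' _ (Linear.lowerT (1 : F)))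
      refine ⟨gw, sup_conj_eq_top_of_image S hker hSφ hgw ?_, fun h' => absurd h' h⟩
      simp [Matrix.SpecialLinearGroup.transvection_coe]
  set A' := A.map (MulAut.conj g).toMonoidHom with hA'
  set D' := W ⊓ centralizer (A' : Set G) with hD'
  set g' := (MulAut.conj g).toMonoidHom with hg'
  have hg'i : Function.Injective g' := (MulAut.conj g).injective
  have hDD' : D.map g' = D' := by
    rw [hD, map_inf _ _ _ hg'i, hWn]
    congr 1
    exact map_conj_centralizer g A
  have hcD' : Nat.card D' = Nat.card D := hDD' ▸ card_map_of_injective hg'i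
  have hAQS : A ⊔ Q ≤ S := sup_le hA.1 hQS
  have hA'W : ⁅W, A'⁆ ≤ D' := by
    rw [← hWn g, ← map_commutator, ← hDD']
    refine map_mono (le_inf (Modules.commutator_le_of_normalizes (hWtop A)) ?_)
    exact commutator_eq_bot_iff_le_centralizer.1 hquad
  have hSle : ∀ X : Subgroup G, A ⊔ Q = S →
      A ⊔ A' ⊔ Q ≤ X → X = ⊤ := by
    intro X hS' hX
    have h1 : (S : Subgroup G) ≤ X := hS' ▸ (sup_le (le_sup_left.trans le_sup_left) le_sup_right).trans hX
    have h2 : (S : Subgroup G).map g' ≤ X := by
      rw [← hS', Subgroup.map_sup, hQn]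
      exact (sup_le (le_sup_right.trans le_sup_left) le_sup_right).trans hX
    by_contra hne
    obtain ⟨M, ⟨hM, hSM⟩, huniq⟩ := hE₂
    obtain ⟨C, hCc, hXC⟩ := (eq_top_or_exists_le_coatom X).resolve_left hne
    have hCM := huniq C ⟨hCc, h1.trans hXC⟩
    subst hCM
    have hKne := sup_ker_ne_top S hs hker hSφ
    obtain ⟨C', hC', hKC'⟩ := (eq_top_or_exists_le_coatom _).resolve_left hKne
    have := huniq C' ⟨hC', le_sup_left.trans hKC'⟩
    subst this
    exact hM.1 (top_le_iff.1 (hgen.ge.trans
      (sup_le (sup_le hSM (h2.trans hXC)) (le_sup_right.trans hKC'))))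
  -- the counting
  have hkey : A ⊔ Q = S ∧ D ⊔ D' = W ∧ Nat.card B * Nat.card W = Nat.card A * Nat.card D := by
    have hfullof : Nat.card W = Nat.card F * Nat.card D → A ⊔ Q = (S : Subgroup G) ∧
        Nat.card B * Nat.card W = Nat.card A * Nat.card D := by
      intro hWe
      have h1 : Nat.card F * Nat.card B ≤ Nat.card A := by
        refine Nat.le_of_mul_le_mul_right ?_ (Nat.card_pos (α := D))
        calc Nat.card F * Nat.card B * Nat.card D = Nat.card B * Nat.card W := by rw [hWe]; ring
          _ ≤ _ := hweight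
      refine ⟨eq_of_le_of_card_ge hAQS ?_, le_antisymm hweight ?_⟩
      · refine Nat.le_of_mul_le_mul_right ?_ (Nat.card_pos (α := B))
        show Nat.card S * Nat.card B ≤ _
        rw [hAQcard, hcS, mul_right_comm]
        exact Nat.mul_le_mul_right _ h1
      · calc Nat.card A * Nat.card D ≤ Nat.card F * Nat.card B * Nat.card D :=
              Nat.mul_le_mul_right _ hBq
          _ = _ := by rw [hWe]; ring
    by_cases h2n : 2 ≤ n
    · set x := a * (g * a * g⁻¹) with hx
      set k := orderOf x with hk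
      have hk0 : k ≠ 0 := (orderOf_pos x).ne'
      obtain ⟨j, m, hlm', hkm⟩ := Nat.exists_eq_pow_mul_and_not_dvd hk0 l hl.ne_one
      have hrk : l ^ (e' + 1) ∣ k := hord h2n k (by rw [hk, pow_orderOf_eq_one]; exact one_mem _)
      have hej : e' + 1 ≤ j := by
        rw [hkm] at hrk
        exact (Nat.pow_dvd_pow_iff_le_right hl.one_lt).1
          ((Nat.Coprime.pow_left _ (hl.coprime_iff_not_dvd.2 hlm')).dvd_of_dvd_mul_right hrk)
      set x' := x ^ m with hx'
      have hxo : orderOf x' = l ^ j := by
        rw [hx', orderOf_pow' _ (by rintro rfl; simp at hlm'), ← hk, hkm,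
          Nat.gcd_eq_right (dvd_mul_left m _),
          Nat.mul_div_cancel _ (Nat.pos_of_ne_zero (by rintro rfl; simp at hlm'))]
      set y := x' ^ l ^ e' with hy
      have hyK : y ∉ K := by
        intro h
        rw [hy, hx', ← pow_mul] at h
        have := hord h2n _ h
        rw [mul_comm, pow_succ, Nat.mul_dvd_mul_iff_left (pow_pos hl.pos _)] at this
        exact hlm' this
      have h4 : 4 ≤ Nat.card F := by
        rw [hqF]
        calc (4 : ℕ) = 2 ^ 2 := rfl
          _ ≤ p ^ 2 := Nat.pow_le_pow_left hp.two_le 2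
          _ ≤ p ^ n := Nat.pow_le_pow_right hp.pos h2n
      have hCK : centralizer (W : Set G) ≤ K :=
        normal_le_ker S hs hker hSφ h4 hn hF _ (hC.trans (pCore_le_ker S hs hker hSφ))
      have hyN : y ∈ normalizer (W : Set G) := hWtop ⊤ (mem_top y)
      set T := ⁅W, zpowers y⁆ with hT
      have hTW : T ≤ W := Modules.commutator_le_of_normalizes (hWtop _)
      have hTfix : T ⊓ centralizer ({y} : Set G) = ⊥ := by
        refine (eq_bot_iff_forall _).2 fun w hw => ?_
        obtain ⟨v, hv, hvw⟩ := (Modules.mem_commRange hWc hyN).1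
          (by rw [← Modules.commutator_zpowers_eq hWc hyN]; exact hw.1)
        have hwy : y * w = w * y := (mem_centralizer_singleton_iff.1 hw.2).symm
        have hpow : ∀ i : ℕ, ⁅v, y ^ i⁆ = w ^ i := by
          intro i
          induction i with
          | zero => simp
          | succ i ih =>
            rw [pow_succ, pow_succ, Modules.commutatorElement_mul_right, ih, hvw,
              ((Commute.pow_left hwy i).eq : y ^ i * w = w * y ^ i), mul_inv_cancel_right]
        have hyo : orderOf y ∣ l ^ j := hxo ▸ hy ▸ orderOf_pow_dvd _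
        have hw1 : w ^ l ^ j = 1 := by
          rw [← hpow, orderOf_dvd_iff_pow_eq_one.1 hyo, commutatorElement_one_right]
        obtain ⟨i, hi⟩ := hWp ⟨w, hTW hw.1⟩
        have hwi : w ^ p ^ i = 1 := congrArg Subtype.val hi
        exact orderOf_eq_one_iff.1 (Nat.eq_one_of_dvd_coprimes
          (Nat.Coprime.pow j i ((Nat.coprime_primes hl hp).2 hlp))
          (orderOf_dvd_of_pow_eq_one hw1) (orderOf_dvd_of_pow_eq_one hwi))
      have hxT : x' ∈ normalizer (T : Set G) := by
        refine mem_normalizer_iff_map_conj_eq.2 ?_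
        rw [hT, map_commutator]
        erw [hWn x', MonoidHom.map_zpowers]
        congr 2
        simp [hy, (Commute.self_pow x' (l ^ e')).eq]
      have hdvd := dvd_card_sub_one_of_orbits hxT hl hxo (hy ▸ hTfix)
      obtain ⟨mT, hmT⟩ := IsPGroup.iff_card.1 (hWp.to_le hTW)
      rw [hmT] at hdvd
      have hmT0 : mT ≠ 0 := by
        rintro rfl
        rw [pow_zero] at hmT
        refine hyK (hCK (mem_centralizer_iff.2 fun v hv => ?_))
        refine commutatorElement_eq_one_iff_mul_comm.1 ?_
        have : ⁅v, y⁆ ∈ T := commutator_mem_commutator hv (mem_zpowers y)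
        rwa [card_eq_one.1 hmT, mem_bot] at this
      have h2m : 2 * n ≤ mT := Nat.le_of_dvd (Nat.pos_of_ne_zero hmT0) (hlm mT h2n hdvd)
      have hTq : Nat.card F * Nat.card F ≤ Nat.card T := by
        rw [hmT, hqF, ← pow_add]
        exact Nat.pow_le_pow_right hp.pos (by omega)
      have hcc := Modules.card_eq_commutator_mul_centralizer hWc hyN
      have hC0 : D ⊓ D' ≤ W ⊓ centralizer ({y} : Set G) := by
        refine le_inf (inf_le_left.trans inf_le_left) fun z hz => ?_
        have hH : A ⊔ A' ≤ centralizer ((D ⊓ D' : Subgroup G) : Set G) :=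
          sup_le (le_centralizer_iff.1 (inf_le_left.trans inf_le_right))
            (le_centralizer_iff.1 (inf_le_right.trans inf_le_right))
        have hyA : y ∈ A ⊔ A' :=
          pow_mem (pow_mem (mul_mem (mem_sup_left haA)
            (mem_sup_right (mem_map_of_mem g' haA))) _) _
        exact mem_centralizer_singleton_iff.2 (mem_centralizer_iff.1 (hH hyA) z hz)
      have hcDD := Modules.card_sup_mul_card_inf (B := D) (V := D')
        (fun d hd => centralizer_le_normalizer _ ((Modules.comm_le_centralizer hWc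
          |>.trans (centralizer_le (inf_le_left : D' ≤ W))) hd.1))
      have hW' : Nat.card F * Nat.card F * Nat.card ↥(D ⊓ D') ≤ Nat.card W := by
        rw [hcc]
        exact Nat.mul_le_mul hTq (card_le_of_le hC0)
      have hsupW : D ⊔ D' ≤ W := sup_le inf_le_left inf_le_left
      have hsupeq : D ⊔ D' = W := by
        refine eq_of_le_of_card_ge hsupW ?_
        refine Nat.le_of_mul_le_mul_right ?_ (Nat.card_pos (α := W))
        calc Nat.card W * Nat.card W
            ≤ (Nat.card F * Nat.card D) * (Nat.card F * Nat.card D') :=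
              Nat.mul_le_mul hWD (hcD'.symm ▸ hWD)
          _ = Nat.card ↥(D ⊔ D') * (Nat.card F * Nat.card F * Nat.card ↥(D ⊓ D')) := by
              rw [mul_mul_mul_comm, ← hcDD]; ring
          _ ≤ _ := Nat.mul_le_mul_left _ hW'
      refine ⟨(hfullof ?_).1, hsupeq, (hfullof ?_).2⟩ <;>
      · rw [hsupeq, hcD'] at hcDD
        refine le_antisymm hWD ?_
        refine Nat.le_of_mul_le_mul_right ?_ (Nat.card_pos (α := D))
        calc Nat.card F * Nat.card D * Nat.card D
            = Nat.card F * (Nat.card W * Nat.card ↥(D ⊓ D')) := by rw [hcDD]; ring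
          _ = Nat.card F * Nat.card ↥(D ⊓ D') * Nat.card W := by ring
          _ ≤ Nat.card D * Nat.card W := Nat.mul_le_mul_right _ ?_
          _ = _ := mul_comm _ _
        refine Nat.le_of_mul_le_mul_left ?_ (Nat.card_pos (α := F))
        calc Nat.card F * (Nat.card F * Nat.card ↥(D ⊓ D')) ≤ Nat.card W := by
              rw [← mul_assoc]; exact hW'
          _ ≤ _ := hWD
    · obtain rfl : n = 1 := by omega
      rw [pow_one] at hqF
      have hS' : A ⊔ Q = (S : Subgroup G) := by
        refine eq_of_le_of_card_ge hAQS ?_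
        obtain ⟨c, hc⟩ := card_dvd_of_le (le_sup_right : Q ≤ A ⊔ Q)
        have hd := card_dvd_of_le hAQS
        show Nat.card S ≤ _
        rw [hcS, hqF, hc, mul_comm p] 
        rw [hcS, hqF, hc, mul_comm p, Nat.mul_dvd_mul_iff_left Nat.card_pos] at hd
        rcases (Nat.dvd_prime hp).1 hd with rfl | rfl
        · refine absurd ?_ hAQ
          rw [mul_one] at hc
          exact (le_sup_left : A ≤ A ⊔ Q).trans
            (eq_of_le_of_card_ge (le_sup_right : Q ≤ A ⊔ Q) hc.le).ge
        · exact le_rfl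
      have hDne : D ≠ W := fun h => hAQ fun b hb =>
        hC ⟨hA.1 hb, (le_centralizer_iff.1 (inf_eq_left.1 h)) hb⟩
      have hWe : Nat.card W = Nat.card F * Nat.card D := by
        refine le_antisymm hWD ?_
        obtain ⟨c, hc⟩ := card_dvd_of_le (inf_le_left : D ≤ W)
        have hc1 : c ≠ 1 := by
          rintro rfl
          exact hDne (eq_of_le_of_card_ge inf_le_left (by rw [hc, mul_one]))
        obtain ⟨i, hi⟩ := IsPGroup.iff_card.1 hWp
        obtain ⟨i', -, rfl⟩ := (Nat.dvd_prime_pow hp).1 (hi ▸ Dvd.intro_left _ hc.symm)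
        rw [hc, hqF, mul_comm p]
        refine Nat.mul_le_mul_left _ ?_
        calc p = p ^ 1 := (pow_one p).symm
          _ ≤ p ^ i' := Nat.pow_le_pow_right hp.pos
              (Nat.pos_of_ne_zero (by rintro rfl; simp at hc1))
      refine ⟨hS', ?_, (hfullof hWe).2⟩
      by_contra hne
      have hle : D' ≤ D := by
        obtain ⟨c, hc⟩ := card_dvd_of_le (le_sup_left : D ≤ D ⊔ D')
        have hd := card_dvd_of_le (sup_le inf_le_left inf_le_left : D ⊔ D' ≤ W)
        rw [hWe, hqF, hc, mul_comm p, Nat.mul_dvd_mul_iff_left Nat.card_pos] at hd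
        rcases (Nat.dvd_prime hp).1 hd with rfl | rfl
        · rw [mul_one] at hc
          exact le_sup_right.trans (eq_of_le_of_card_ge (le_sup_left : D ≤ D ⊔ D') hc.le).ge
        · refine absurd (eq_of_le_of_card_ge
            (sup_le inf_le_left inf_le_left : D ⊔ D' ≤ W) ?_) hne
          rw [hWe, hc, hqF, mul_comm]
      have hDeq : D' = D := eq_of_le_of_card_ge hle hcD'.ge
      have hDc : D ≤ center G := by
        have : centralizer (D : Set G) = ⊤ := hSle _ hS' (sup_le (sup_le
          (le_centralizer_iff.1 inf_le_right)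
          (le_centralizer_iff.1 (hDeq ▸ inf_le_right))) (le_centralizer_iff.1
            (inf_le_left.trans inf_le_right)))
        intro d hd
        exact mem_center_iff.2 fun x =>
          (mem_centralizer_iff.1 (this.ge (mem_top x)) d hd).symm
      haveI hDn : D.Normal := normal_of_le_center hDc
      have hWD' : ∀ x : G, ∀ w ∈ W, ⁅w, x⁆ ∈ D := by
        have hcl : (⊤ : Subgroup G) ≤ closure ((A : Set G) ∪ A' ∪ Q) := by
          rw [Subgroup.closure_union, Subgroup.closure_union, closure_eq, closure_eq, closure_eq,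
            hSle _ hS' le_rfl]
        have hb : ⁅W, (⊤ : Subgroup G)⁆ ≤ D := by
          refine Modules.commutator_le_of_closure hcl ?_ ?_
          · rw [normalizer_eq_top (H := D)]; exact Set.subset_univ _
          · rintro x ((hx | hx) | hx) w hw
            · exact (le_inf (Modules.commutator_le_of_normalizes (hWtop A))
                (commutator_eq_bot_iff_le_centralizer.1 hquad))
                (commutator_mem_commutator hw hx)
            · exact hle (hA'W (commutator_mem_commutator hw hx))
            · rw [commutatorElement_eq_one_iff_mul_comm.2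
                (mem_centralizer_iff.1 (hQW hx) w hw)]
              exact one_mem _
        exact fun x w hw => hb (commutator_mem_commutator hw (mem_top x))
      obtain ⟨i, hi⟩ := IsPGroup.iff_card.1 hWp
      have hquot : IsPGroup p (G ⧸ centralizer (W : Set G)) := by
        refine fun z => ⟨i, ?_⟩
        obtain ⟨x, rfl⟩ := QuotientGroup.mk'_surjective _ z
        rw [← map_pow]
        refine (QuotientGroup.eq_one_iff _).2 (mem_centralizer_iff.2 fun w hw => ?_)
        refine commutatorElement_eq_one_iff_mul_comm.1 ?_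
        have hpow : ∀ k : ℕ, ⁅w, x ^ k⁆ = ⁅w, x⁆ ^ k := by
          intro k
          induction k with
          | zero => simp
          | succ k ih =>
            rw [pow_succ, pow_succ, Modules.commutatorElement_mul_right, ih,
              ← ((mem_center_iff.1 (hDc (hWD' x w hw))) (x ^ k)).symm, mul_inv_cancel_right]
        rw [hpow, ← hi]
        exact congrArg Subtype.val
          (pow_card_eq_one' (x := (⟨⁅w, x⁆, (hWD' x w hw).1⟩ : W)))
      refine hCne ?_
      have hms := (QuotientGroup.mk'_surjective (centralizer (W : Set G)))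
      have htopS : ((S.mapSurjective hms : Sylow p _) :
          Subgroup (G ⧸ centralizer (W : Set G))) = ⊤ := by
        obtain ⟨P, hP⟩ := (hquot.to_subgroup (⊤ : Subgroup (G ⧸ centralizer (W : Set G)))).exists_le_sylow
        refine eq_top_of_le_card _ ?_
        rw [Sylow.card_eq_multiplicity (S.mapSurjective hms), ← Sylow.card_eq_multiplicity P]
        exact card_top.symm.le.trans (card_le_of_le hP)
      rw [Sylow.coe_mapSurjective] at htopS
      have := congrArg (comap (QuotientGroup.mk' (centralizer (W : Set G)))) htopS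
      rwa [comap_map_eq, comap_top, QuotientGroup.ker_mk'] at this
  obtain ⟨hS', hDW, hweq⟩ := hkey
  have htop := fun X => hSle X hS'
  -- the fixed points are central in `S`
  have hDZ : D ≤ Z := by
    refine le_inf (inf_le_left.trans hWS) ?_
    rw [← hS', le_centralizer_iff]
    exact sup_le (le_centralizer_iff.1 inf_le_right)
      (le_centralizer_iff.1 (inf_le_left.trans inf_le_right))
  -- a member of `maxAbIn S` inside `Q`
  set As := W ⊔ B with hAs
  have hAsS : As ≤ S := sup_le hWS (inf_le_left.trans hA.1)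
  have hAsc : IsMulCommutative As := Modules.comm_sup hWc (Modules.comm_mono inf_le_left hA.2.1)
    hBC
  have hWA : W ⊓ B = D := by
    rw [hD, Modules.maxAbIn_inf_centralizer' hA hWS, hB, ← inf_assoc, inf_eq_left]
    exact inf_le_left.trans inf_le_left
  have hAsm : As ∈ Modules.maxAbIn (S : Subgroup G) := by
    refine ⟨hAsS, hAsc, fun X hX hXc => (hA.2.2 X hX hXc).trans ?_⟩
    have h := Modules.card_sup_mul_card_inf (B := W) (V := B)
      ((le_centralizer_iff.1 hBC).trans (centralizer_le_normalizer _))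
    rw [hWA] at h
    refine Nat.le_of_mul_le_mul_right ?_ (Nat.card_pos (α := D))
    rw [← hweq, hAs, h, mul_comm]
  have hAsQ : As ≤ Q := sup_le inf_le_left inf_le_right
  have hAs'm : As.map g' ∈ Modules.maxAbIn (S : Subgroup G) := by
    refine ⟨((map_mono hAsQ).trans (hQn g).le).trans hQS, Modules.comm_map g' hAsc, ?_⟩
    rw [card_map_of_injective hg'i]
    exact hAsm.2.2
  have hZJA : ZJ ≤ A := Modules.centerThompsonAOf_le_of_mem hA
  have hZJQ : ZJ ≤ Q := (Modules.centerThompsonAOf_le_of_mem hAsm).trans hAsQ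
  have hSZJ : (S : Subgroup G) ≤ normalizer (ZJ : Set G) :=
    le_normalizer.trans (Modules.normalizer_le_normalizer_centerThompsonAOf _)
  have hAZ : A ≤ centralizer (ZJ : Set G) :=
    (Modules.comm_le_centralizer hA.2.1).trans (centralizer_le hZJA)
  set U := ZJ ⊔ W with hU
  have hA'U : A' ≤ normalizer (U : Set G) := by
    refine le_normalizer_iff_commutator_le_left.2 ?_
    refine le_trans ?_ (le_sup_right : W ≤ U)
    have hbd : ⁅W ⊔ B.map g', A'⁆ ≤ W := by
      refine commutator_le.2 fun u hu c hc => ?_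
      rw [← SetLike.mem_coe, coe_mul_of_right_le_normalizer_left W (B.map g') (hWtop _)] at hu
      obtain ⟨w, hw, b, hb, rfl⟩ := hu
      obtain ⟨b₀, hb₀, rfl⟩ := hb
      obtain ⟨c₀, hc₀, rfl⟩ := hc
      rw [Modules.commutatorElement_mul_left, ← map_commutatorElement g',
        commutatorElement_eq_one_iff_mul_comm.2
          (Modules.comm_iff.1 hA.2.1 b₀ hb₀.1 c₀ hc₀), map_one, mul_one, mul_inv_cancel, one_mul]
      exact Modules.commutatorElement_mem (hWtop ⊤ (mem_top _)) hw
    refine (commutator_mono (sup_le ?_ le_sup_left) le_rfl).trans hbd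
    have h := Modules.centerThompsonAOf_le_of_mem hAs'm
    rwa [hAs, Subgroup.map_sup, hWn] at h
  haveI hUn : U.Normal := normalizer_eq_top_iff.1 (htop _ (sup_le (sup_le
    (Modules.normalizes_sup (hA.1.trans hSZJ) (hWtop A)) hA'U)
    (Modules.normalizes_sup (hQS.trans hSZJ) (hWtop Q))))
  have hUg : ZJ.map g' ⊔ W = U := by
    have h := mem_normalizer_iff_map_conj_eq.1
      (show g ∈ normalizer (U : Set G) by rw [normalizer_eq_top (H := U)]; trivial)
    rw [hU, Subgroup.map_sup] at h
    erw [hWn] at h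
    exact h
  set U₀ := ZJ ⊓ ZJ.map g' with hU₀
  have hA'c : A' ≤ centralizer (U₀ : Set G) := by
    refine le_trans ?_ (centralizer_le (inf_le_right : U₀ ≤ ZJ.map g'))
    rw [hA', ← map_conj_centralizer g ZJ]
    exact map_mono hAZ
  have hAc : A ≤ centralizer (U₀ : Set G) := hAZ.trans (centralizer_le inf_le_left)
  have hQU₀ : Q ≤ normalizer (U₀ : Set G) := by
    refine Modules.normalizes_inf (hQS.trans hSZJ) ?_
    refine le_trans ?_ (le_normalizer_map g')
    exact (hQn g).ge.trans (map_mono (hQS.trans hSZJ))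
  have hU₀n : U₀.Normal := normalizer_eq_top_iff.1 (htop _ (sup_le (sup_le
    (hAc.trans (centralizer_le_normalizer _)) (hA'c.trans (centralizer_le_normalizer _))) hQU₀))
  refine ⟨U₀, hU₀n, inf_le_left, ?_, ?_⟩
  · exact htop _ (sup_le (sup_le (hAc.trans le_sup_right) (hA'c.trans le_sup_right))
      (hQS.trans le_sup_left))
  intro u hu
  have huU : u ∈ ZJ.map g' ⊔ W := hUg ▸ mem_sup_left hu
  rw [← SetLike.mem_coe, coe_mul_of_right_le_normalizer_left _ _ ?_] at huU
  · obtain ⟨u', hu', w, hw, rfl⟩ := huU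
    obtain ⟨d', hd', d, hd, rfl⟩ : ∃ d' ∈ D', ∃ d ∈ D, d' * d = w := by
      have hw' : w ∈ D' ⊔ D := by rw [sup_comm, hDW]; exact hw
      rw [← SetLike.mem_coe, coe_mul_of_right_le_normalizer_left _ _ ?_] at hw'
      · exact hw'
      exact fun x hx => centralizer_le_normalizer _
        ((Modules.comm_le_centralizer hWc |>.trans (centralizer_le (inf_le_left : D' ≤ W))) hx.1)
    beta_reduce at hu ⊢
    rw [← mul_assoc] at hu ⊢
    refine mul_mem (mem_sup_left ⟨?_, ?_⟩) (mem_sup_right (hDZ hd))
    · have := ZJ.mul_mem hu (ZJ.inv_mem (center_sylow_le_centerThompson S (hDZ hd)))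
      rwa [mul_inv_cancel_right] at this
    · refine (ZJ.map g').mul_mem hu' ?_
      rw [← hDD'] at hd'
      exact map_mono (hDZ.trans (center_sylow_le_centerThompson S)) hd'
  · have h := Modules.centerThompsonAOf_le_of_mem hAsm
    have h' : W ≤ As.map g' := (hWn g).ge.trans (map_mono le_sup_left)
    exact h'.trans (((Modules.comm_le_centralizer hAs'm.2.1).trans
      (centralizer_le (map_mono h))).trans (centralizer_le_normalizer _))

end Cfsg.Agent.EvenLocal
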