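import Cfsg.Agent.Modules.Replacement
import Cfsg.Agent.Cores.Basic
import Cfsg.Agent.Tech.Basic

/-!
Pushing up with a Sylow subgroup lying in a unique maximal subgroup: the case of the
abelian Thompson subgroup.
-/

set_option autoImplicit false
set_option linter.style.haveILetI false

namespace Cfsg.Agent.EvenLocal

open Subgroup
open scoped commutatorElement

variable {G : Type*} [Group G] [Finite G] {p : ℕ} [Fact p.Prime]

/-- A normal subgroup either has its Sylow `p`-subgroup in `O_p(G)` or covers `G` with `S`. -/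
theorem inf_le_pCore_or_sup_eq_top (S : Sylow p G)
    (hE₂ : ∃! M : Subgroup G, IsCoatom M ∧ (S : Subgroup G) ≤ M) (N : Subgroup G) [N.Normal] :
    (S : Subgroup G) ⊓ N ≤ Cfsg.pCore p G ∨ (S : Subgroup G) ⊔ N = ⊤ := by
  obtain ⟨Q, hQ⟩ := Tech.exists_sylow_of_inf_normal S N
  have hfr := Sylow.normalizer_sup_eq_top Q
  rw [hQ] at hfr
  set R := (S : Subgroup G) ⊓ N with hR
  by_cases h : normalizer (R : Set G) = ⊤
  · exact Or.inl (Cores.le_pCore (normalizer_eq_top_iff.1 h) (S.2.to_le inf_le_left))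
  refine Or.inr ?_
  obtain ⟨M, ⟨hM, hSM⟩, huniq⟩ := hE₂
  have key : ∀ H : Subgroup G, (S : Subgroup G) ≤ H → H ≠ ⊤ → H ≤ M := by
    intro H hH hne
    obtain ⟨C, hC, hHC⟩ := (eq_top_or_exists_le_coatom H).resolve_left hne
    exact hHC.trans (huniq C ⟨hC, hH.trans hHC⟩).le
  by_contra hne
  have hNM : N ≤ M := le_sup_right.trans (key _ le_sup_left hne)
  have hRM : normalizer (R : Set G) ≤ M := by
    refine key _ ?_ h
    exact fun s hs => inf_normalizer_le_normalizer_inf
      ⟨le_normalizer hs, by rw [normalizer_eq_top]; exact mem_top s⟩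
  exact hM.1 (top_le_iff.1 (hfr.ge.trans (sup_le hRM hNM)))

omit [Fact p.Prime] in
theorem le_center_of_centralized (S : Sylow p G) {N X : Subgroup G}
    (hN : (S : Subgroup G) ⊔ N = ⊤) (hNX : N ≤ centralizer (X : Set G))
    (hX : X ≤ centralizer ((S : Subgroup G) : Set G)) : X ≤ center G := by
  have h : ⊤ ≤ centralizer (X : Set G) := hN.ge.trans (sup_le (le_centralizer_iff.1 hX) hNX)
  exact fun x hx => mem_center_iff.2 fun g => (mem_centralizer_iff.1 (h (mem_top g)) x hx).symm

omit [Finite G] in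
theorem normal_of_le_center {X : Subgroup G} (h : X ≤ center G) : X.Normal :=
  ⟨fun x hx g => by rw [mem_center_iff.1 (h hx) g, mul_inv_cancel_right]; exact hx⟩

variable (S : Sylow p G) (hE₁ : centralizer (Cfsg.pCore p G : Set G) ≤ Cfsg.pCore p G)
  (hE₂ : ∃! M : Subgroup G, IsCoatom M ∧ (S : Subgroup G) ≤ M)

include hE₁ in
/-- `Z(S) ≤ Z(O_p(G))`. -/
theorem center_sylow_le : (S : Subgroup G) ⊓ centralizer ((S : Subgroup G) : Set G) ≤
    Cfsg.pCore p G ⊓ centralizer (Cfsg.pCore p G : Set G) :=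
  have h : (S : Subgroup G) ⊓ centralizer ((S : Subgroup G) : Set G) ≤
      centralizer (Cfsg.pCore p G : Set G) :=
    inf_le_right.trans (centralizer_le (Cores.pCore_le_sylow S))
  le_inf (h.trans hE₁) h

theorem center_sylow_le_centerThompson :
    (S : Subgroup G) ⊓ centralizer ((S : Subgroup G) : Set G) ≤
      Cfsg.centerThompsonAOf (S : Subgroup G) :=
  Modules.center_le_centerThompsonAOf _

include hE₂ in
/-- If `J(S) ≤ O_p(G)` then `C_S(Z(J(S)))` is normal or `Z(S)` is central. -/
theorem jTilde_normal_or_center_le_center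
    (hJ : Cfsg.thompsonSubgroupAOf (S : Subgroup G) ≤ Cfsg.pCore p G) :
    ((S : Subgroup G) ⊓ centralizer (Cfsg.centerThompsonAOf (S : Subgroup G) : Set G)).Normal ∨
      (S : Subgroup G) ⊓ centralizer ((S : Subgroup G) : Set G) ≤ center G := by
  have hQ := Cores.pCore_le_sylow S
  have hJQ := Modules.thompsonSubgroupAOf_eq_of_le hQ hJ
  set W := Cfsg.centerThompsonAOf (S : Subgroup G) with hW
  haveI hWn : W.Normal := by
    have e : W = Cfsg.centerThompsonAOf (Cfsg.pCore p G) := by
      rw [hW, Cfsg.centerThompsonAOf, Cfsg.centerThompsonAOf, hJQ]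
    refine normalizer_eq_top_iff.1 (top_le_iff.1 ?_)
    rw [e]
    exact (normalizer_eq_top (H := Cfsg.pCore p G)).ge.trans
      (Modules.normalizer_le_normalizer_centerThompsonAOf _)
  haveI : (centralizer (W : Set G)).Normal := normalizer_eq_top_iff.1 (top_le_iff.1
    (Modules.normalizes_centralizer (normalizer_eq_top (H := W)).ge))
  rcases inf_le_pCore_or_sup_eq_top S hE₂ (centralizer (W : Set G)) with h | h
  · left
    have e : (S : Subgroup G) ⊓ centralizer (W : Set G) =
        Cfsg.pCore p G ⊓ centralizer (W : Set G) :=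
      le_antisymm (le_inf h inf_le_right) (inf_le_inf_right _ hQ)
    rw [e]
    infer_instance
  · exact Or.inr (le_center_of_centralized S h
      (centralizer_le (center_sylow_le_centerThompson S)) inf_le_right)

include hE₂ in
/-- If `J(S) ≰ O_p(G)` and `Z(S)` is not central, some quadratic element of order `p` modulo
`O_p(G)` centralizes exactly `O_p(G) ∩ S` on `Z(O_p(G))`. -/
theorem exists_quadratic_element
    (hJ : ¬ Cfsg.thompsonSubgroupAOf (S : Subgroup G) ≤ Cfsg.pCore p G)
    (hC : (S : Subgroup G) ⊓ centralizer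
      ((Cfsg.pCore p G ⊓ centralizer (Cfsg.pCore p G : Set G) : Subgroup G) : Set G) ≤
        Cfsg.pCore p G) :
    ∃ A ∈ Modules.maxAbIn (S : Subgroup G), ¬ A ≤ Cfsg.pCore p G ∧
      ⁅⁅Cfsg.pCore p G ⊓ centralizer (Cfsg.pCore p G : Set G), A⁆, A⁆ = ⊥ := by
  set W := Cfsg.pCore p G ⊓ centralizer (Cfsg.pCore p G : Set G) with hW
  have hQ := Cores.pCore_le_sylow S
  have hWc : IsMulCommutative W := Modules.comm_iff.2 fun a ha b hb =>
    mem_centralizer_iff.1 hb.2 a ha.1
  obtain ⟨A, hA, hAQ⟩ : ∃ A ∈ Modules.maxAbIn (S : Subgroup G), ¬ A ≤ Cfsg.pCore p G := by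
    by_contra h
    push Not at h
    exact hJ ((Modules.thompsonSubgroupAOf_eq_sSup _).le.trans (sSup_le h))
  have hWS : W ≤ (S : Subgroup G) := inf_le_left.trans hQ
  have hAW : A ≤ normalizer (W : Set G) := by
    rw [normalizer_eq_top (H := W)]; exact le_top
  obtain ⟨hA', hq⟩ := Modules.ab_replacement hA hWc hWS hAW
  refine ⟨_, hA', fun hle => hAQ ?_, hq⟩
  set D := ⁅W, A⁆ with hD
  set B := A ⊓ centralizer (D : Set G) with hB
  have hDW : D ≤ W := Modules.commutator_le_of_normalizes hAW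
  have hBW : B ≤ centralizer (W : Set G) := by
    exact (le_sup_right.trans hle).trans (le_centralizer_iff.1 inf_le_right)
  have hWA' : W ≤ D ⊔ B := by
    refine le_trans (le_of_eq ?_) (inf_le_right : W ⊓ (D ⊔ B) ≤ D ⊔ B)
    rw [← Modules.maxAbIn_inf_centralizer' hA' hWS, left_eq_inf, le_centralizer_iff]
    exact sup_le (hDW.trans (Modules.comm_le_centralizer hWc)) hBW
  have h1 : D ≤ ⁅D, A⁆ := by
    refine commutator_le.2 fun w hw a ha => ?_
    obtain ⟨d, hd, b, hb, rfl⟩ : ∃ d ∈ D, ∃ b ∈ B, d * b = w := by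
      have hn : B ≤ normalizer (D : Set G) :=
        inf_le_left.trans (Modules.normalizes_commutator hAW)
      have := hWA' hw
      rw [← SetLike.mem_coe, coe_mul_of_right_le_normalizer_left D B hn] at this
      exact this
    rw [Modules.commutatorElement_mul_left,
      commutatorElement_eq_one_iff_mul_comm.2 (Modules.comm_iff.1 hA.2.1 b hb.1 a ha), mul_one,
      mul_inv_cancel, one_mul]
    exact commutator_mem_commutator hd ha
  have hWp : IsPGroup p W := S.2.to_le hWS
  have h2 := Modules.commutator_eq_bot_of_le_commutator hWp hAW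
    (fun a ha => by
      obtain ⟨k, hk⟩ := S.2.to_le hA.1 ⟨a, ha⟩
      exact ⟨k, by rw [show a ^ p ^ k = 1 from congrArg Subtype.val hk]; exact one_mem _⟩) h1
  exact (le_inf hA.1 (le_centralizer_iff.1 (commutator_eq_bot_iff_le_centralizer.1 h2))).trans hC

end Cfsg.Agent.EvenLocal
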