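import Cfsg.Agent.EvenLocal.RankOne
import Cfsg.Agent.EvenLocal.TraceOrder
import Cfsg.Agent.Linear.Orders
import Cfsg.Agent.Linear.Transvection

/-!
The quotient `PSL(2, q)` seen from a Sylow subgroup of the group.
-/

set_option autoImplicit false
set_option linter.style.haveILetI false

namespace Cfsg.Agent.EvenLocal

open Subgroup Linear
open scoped MatrixGroups

variable {G : Type*} [Group G] [Finite G] {p : ℕ} [Fact p.Prime]
variable {F : Type*} [Field F] [Fintype F]

/-- The image of the upper unitriangular subgroup in `PSL(2,q)`. -/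
def projUpper (F : Type*) [Field F] : Subgroup (PSL(2, F)) :=
  (upperSL (F := F)).map (QuotientGroup.mk' (center SL(2, F)))

theorem upperSL_inf_center : upperSL (F := F) ⊓ center SL(2, F) = ⊥ := by
  refine (eq_bot_iff_forall _).2 fun x hx => ?_
  obtain ⟨hu, hc⟩ := hx
  obtain ⟨h1, -, -⟩ := sl2_center_entries hc
  have h := upperSL_eq hu
  rw [h1] at h
  rw [h]
  apply slTwo_ext <;> simp [Matrix.SpecialLinearGroup.transvection_coe]

theorem card_projUpper : Nat.card (projUpper F) = Nat.card F := by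
  rw [← card_upperSL (F := F)]
  refine (Nat.card_congr (Equiv.ofBijective
    ((QuotientGroup.mk' (center SL(2, F))).subgroupMap (upperSL (F := F))) ⟨?_, ?_⟩)).symm
  · rw [injective_iff_map_eq_one]
    intro x hx
    have : (x : SL(2, F)) ∈ upperSL (F := F) ⊓ center SL(2, F) :=
      ⟨x.2, (QuotientGroup.eq_one_iff _).1 (congrArg Subtype.val hx)⟩
    rw [upperSL_inf_center, mem_bot] at this
    exact Subtype.ext this
  · exact MonoidHom.subgroupMap_surjective _ _

/-- After composing with an inner automorphism, `S` maps onto the upper unitriangular group. -/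
theorem exists_normalized (S : Sylow p G) (K : Subgroup G) [K.Normal] {n : ℕ} (hn : 1 ≤ n)
    (hF : Fintype.card F = p ^ n)
    (e : G ⧸ K ≃* PSL(2, F)) :
    ∃ φ : G →* PSL(2, F), Function.Surjective φ ∧ φ.ker = K ∧
      (S : Subgroup G).map φ = projUpper F := by
  haveI : CharP F p := charP_of_card_eq_prime_pow hF
  set φ₀ := e.toMonoidHom.comp (QuotientGroup.mk' K) with hφ₀
  have hs : Function.Surjective φ₀ :=
    e.surjective.comp (QuotientGroup.mk'_surjective K)
  have hU : IsPGroup p (upperSL (F := F)) := IsPGroup.of_card (n := n) (by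
    rw [card_upperSL, Nat.card_eq_fintype_card, hF])
  obtain ⟨P, hP⟩ := hU.exists_le_sylow
  have hPU : upperSL (F := F) = P := eq_of_le_of_card_ge hP (by
    show Nat.card P ≤ _
    rw [card_sylow_SL_two p P, card_upperSL, Nat.card_eq_fintype_card])
  obtain ⟨h, hh⟩ := MulAction.exists_smul_eq (PSL(2, F))
    (S.mapSurjective hs) (P.mapSurjective (QuotientGroup.mk'_surjective _))
  refine ⟨(MulAut.conj h).toMonoidHom.comp φ₀, ((MulAut.conj h).surjective).comp hs, ?_, ?_⟩
  · ext x
    simp [hφ₀, MonoidHom.mem_ker]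
  · rw [← map_map]
    have h2 := congrArg (fun T : Sylow p (PSL(2, F)) => (T : Subgroup (PSL(2, F)))) hh
    simp only [Sylow.coe_mapSurjective, Sylow.coe_subgroup_smul] at h2
    rw [projUpper, hPU]
    exact h2

omit [Fintype F] in
theorem projUpper_ne_top : projUpper F ≠ ⊤ := by
  intro h1
  have hm : QuotientGroup.mk' (center SL(2, F)) (lowerT 1) ∈ projUpper F := h1 ▸ mem_top _
  obtain ⟨u, hu, hu1⟩ := hm
  obtain ⟨h1', h2', h3'⟩ := mem_upperSL.1 hu
  have hw : u⁻¹ * lowerT 1 ∈ center SL(2, F) := QuotientGroup.eq.1 hu1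
  obtain ⟨a1, a2, a3⟩ := sl2_center_entries hw
  have e : lowerT (1 : F) = u * (u⁻¹ * lowerT 1) := by group
  set Z := u⁻¹ * lowerT (1 : F) with hZ
  clear_value Z
  have b := congrArg (fun m : SL(2, F) => m 1 0) e
  simp [slTwo_mul_apply, h1', a2, Matrix.SpecialLinearGroup.transvection_coe] at b

section

variable (S : Sylow p G) {K : Subgroup G} [K.Normal] {φ : G →* PSL(2, F)}
  (hs : Function.Surjective φ) (hker : φ.ker = K)
  (hS : (S : Subgroup G).map φ = projUpper F)

include hs hker hS in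
theorem pCore_le_ker : Cfsg.pCore p G ≤ K := by
  intro x hx
  rw [← hker, MonoidHom.mem_ker]
  have hn : ((Cfsg.pCore p G).map φ).Normal := Normal.map inferInstance φ hs
  have hle : (Cfsg.pCore p G).map φ ≤ projUpper F := hS ▸ map_mono (Cores.pCore_le_sylow S)
  have hy : φ x ∈ (Cfsg.pCore p G).map φ := mem_map_of_mem φ hx
  obtain ⟨u, hu, hux⟩ := hle hy
  let g : SL(2, F) := ⟨!![0, -1; 1, 0], by simp [Matrix.det_fin_two]⟩
  have g00 : g 0 0 = 0 := by simp [g]
  have g01 : g 0 1 = -1 := by simp [g]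
  have g10 : g 1 0 = 1 := by simp [g]
  have g11 : g 1 1 = 0 := by simp [g]
  clear_value g
  obtain ⟨v, hv, hvx⟩ := hle (hn.conj_mem _ hy (QuotientGroup.mk' _ g))
  rw [← hux, ← map_inv, ← map_mul, ← map_mul] at hvx
  obtain ⟨h1, h2, h3⟩ := mem_upperSL.1 hu
  obtain ⟨k1, k2, k3⟩ := mem_upperSL.1 hv
  have hu0 : u 0 1 = 0 := by
    have hw : v⁻¹ * (g * u * g⁻¹) ∈ center SL(2, F) := QuotientGroup.eq.1 hvx
    obtain ⟨a1, a2, a3⟩ := sl2_center_entries hw
    have e : g * u = v * (v⁻¹ * (g * u * g⁻¹)) * g := by group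
    set Z := v⁻¹ * (g * u * g⁻¹) with hZ
    clear_value Z
    have b1 := congrArg (fun m : SL(2, F) => m 1 1) e
    have b2 := congrArg (fun m : SL(2, F) => m 1 0) e
    simp [slTwo_mul_apply, g00, g01, g10, g11, h1, h2, h3, k1, k2, k3, a1, a2] at b1 b2
    exact b1
  rw [← hux, upperSL_eq hu, hu0]
  refine (QuotientGroup.eq_one_iff _).2 ?_
  convert one_mem (center SL(2, F))
  apply slTwo_ext <;> simp [Matrix.SpecialLinearGroup.transvection_coe]

include hs hker hS in
theorem sup_ker_ne_top : (S : Subgroup G) ⊔ K ≠ ⊤ := fun h => by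
  have h1 := congrArg (map φ) h
  rw [Subgroup.map_sup, map_top_of_surjective φ hs, hS,
    (Subgroup.map_eq_bot_iff K).2 hker.ge, sup_bot_eq] at h1
  exact projUpper_ne_top h1

include hker hS in
theorem sup_conj_eq_top_of_image {g : G} {g₀ : SL(2, F)}
    (hg : φ g = QuotientGroup.mk' _ g₀) (hg₀ : g₀ 1 0 ≠ 0) :
    (S : Subgroup G) ⊔ (S : Subgroup G).map (MulAut.conj g).toMonoidHom ⊔ K = ⊤ := by
  have key : ((S : Subgroup G) ⊔ (S : Subgroup G).map (MulAut.conj g).toMonoidHom).map φ = ⊤ := by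
    have e : φ.comp (MulAut.conj g).toMonoidHom =
        (MulAut.conj (φ g)).toMonoidHom.comp φ := by ext x; simp
    rw [Subgroup.map_sup, map_map, e, ← map_map, hS, hg, projUpper, map_map,
      show (MulAut.conj (QuotientGroup.mk' (center SL(2, F)) g₀)).toMonoidHom.comp
          (QuotientGroup.mk' (center SL(2, F))) = (QuotientGroup.mk' (center SL(2, F))).comp
            (MulAut.conj g₀).toMonoidHom by ext x; simp, ← map_map, ← Subgroup.map_sup,
      upperSL_sup_conj_eq_top hg₀, map_top_of_surjective _ (QuotientGroup.mk'_surjective _)]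
  rw [← hker, ← comap_map_eq, key, comap_top]

include hs hker hS in
theorem inf_ker_eq_pCore (hE₂ : ∃! M : Subgroup G, IsCoatom M ∧ (S : Subgroup G) ≤ M)
    (hF1 : 1 < Nat.card F) : (S : Subgroup G) ⊓ K = Cfsg.pCore p G := by
  refine le_antisymm ?_ (le_inf (Cores.pCore_le_sylow S) (pCore_le_ker S hs hker hS))
  refine (inf_le_pCore_or_sup_eq_top S hE₂ K).resolve_right fun h => ?_
  exact sup_ker_ne_top S hs hker hS h

include hker hS in
theorem card_sylow_eq (hSK : (S : Subgroup G) ⊓ K = Cfsg.pCore p G) :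
    Nat.card S = Nat.card F * Nat.card (Cfsg.pCore p G) := by
  have h := card_eq_card_quotient_mul_card_subgroup (φ.comp (S : Subgroup G).subtype).ker
  rw [Nat.card_congr
      (QuotientGroup.quotientKerEquivRange (φ.comp (S : Subgroup G).subtype)).toEquiv,
    show (φ.comp (S : Subgroup G).subtype).range = projUpper F by
      rw [MonoidHom.range_comp, range_subtype, hS],
    card_projUpper, show (φ.comp (S : Subgroup G).subtype).ker = K.subgroupOf S by
      rw [← MonoidHom.comap_ker, hker]; rfl,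
    ← inf_subgroupOf_left, Nat.card_congr (subgroupOfEquivOfLe inf_le_left).toEquiv, hSK] at h
  exact h

include hs hker hS in
/-- A normal subgroup with Sylow subgroup in `K` lies in `K` when `4 ≤ q`. -/
theorem normal_le_ker (h4 : 4 ≤ Nat.card F) {n : ℕ} (hn : 1 ≤ n)
    (hF : Fintype.card F = p ^ n) (C : Subgroup G) [C.Normal]
    (hC : (S : Subgroup G) ⊓ C ≤ K) : C ≤ K := by
  haveI := isSimpleGroup_PSL_fin (F := F) 2 le_rfl (fun _ => h4)
  haveI hnm : (C.map φ).Normal := Normal.map inferInstance φ hs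
  rcases hnm.eq_bot_or_eq_top with h | h
  · exact hker ▸ (map_eq_bot_iff C).1 h
  exfalso
  obtain ⟨Q, hQ⟩ := Tech.exists_sylow_of_inf_normal S C
  have hs' : Function.Surjective (φ.comp C.subtype) := by
    rw [← MonoidHom.range_eq_top, MonoidHom.range_comp, range_subtype, h]
  have hb : ((Q.mapSurjective hs' : Sylow p (PSL(2, F))) : Subgroup (PSL(2, F))) = ⊥ := by
    rw [Sylow.coe_mapSurjective, Subgroup.map_eq_bot_iff, ← MonoidHom.comap_ker, hker]
    intro x hx
    exact mem_comap.2 (hC (hQ ▸ mem_map_of_mem C.subtype hx))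
  have hle : IsPGroup p (projUpper F) :=
    IsPGroup.of_card (n := n) (by rw [card_projUpper, Nat.card_eq_fintype_card, hF])
  obtain ⟨P, hP⟩ := hle.exists_le_sylow
  have hcP := Sylow.card_eq_multiplicity (Q.mapSurjective hs')
  rw [hb, card_bot, ← Sylow.card_eq_multiplicity P] at hcP
  have := card_le_of_le hP
  rw [card_projUpper] at this
  omega

include hs hker hS in
/-- Two conjugates of `S` generate modulo `K`, and `a` times its conjugate has large order. -/
theorem exists_generating_conj (hp2 : 1 < Nat.card F) {a : G} (ha : a ∈ (S : Subgroup G))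
    (haK : a ∉ K) {r : ℕ} (hr : Odd r) (hr1 : 1 < r) (hrq : r ∣ Nat.card F + 1) :
    ∃ g : G, (S : Subgroup G) ⊔ (S : Subgroup G).map (MulAut.conj g).toMonoidHom ⊔ K = ⊤ ∧
      ∀ k : ℕ, (a * (g * a * g⁻¹)) ^ k ∈ K → r ∣ k := by
  obtain ⟨t, -, ht, -, -⟩ := exists_nonsplit_torus (F := F)
  rw [← Nat.card_eq_fintype_card] at ht
  obtain ⟨c, hc⟩ := hrq
  have hc0 : c ≠ 0 := by rintro rfl; omega
  have hS0 : orderOf (t ^ c) = r := by
    rw [orderOf_pow' _ hc0, ht, hc, Nat.gcd_eq_right (dvd_mul_left c r),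
      Nat.mul_div_cancel _ (Nat.pos_of_ne_zero hc0)]
  obtain ⟨u, hu, hua⟩ : φ a ∈ projUpper F := hS ▸ mem_map_of_mem φ ha
  have hα : u 0 1 ≠ 0 := by
    intro h0
    refine haK ?_
    rw [← hker, MonoidHom.mem_ker, ← hua, upperSL_eq hu, h0]
    refine (QuotientGroup.eq_one_iff _).2 ?_
    convert one_mem (center SL(2, F))
    apply slTwo_ext <;> simp [Matrix.SpecialLinearGroup.transvection_coe]
  obtain ⟨g₀, hg₀, hord⟩ := exists_conj_product_order hr (t ^ c) hS0 hr1 hα
  rw [← upperSL_eq hu] at hord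
  obtain ⟨g, hg⟩ := hs (QuotientGroup.mk' _ g₀)
  refine ⟨g, sup_conj_eq_top_of_image S hker hS hg hg₀, fun k hk => hord k ?_⟩
  · refine (QuotientGroup.eq_one_iff _).1 ?_
    rw [← hker, MonoidHom.mem_ker, map_pow, map_mul, map_mul, map_mul, map_inv, ← hua, hg] at hk
    exact hk

end

end Cfsg.Agent.EvenLocal
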